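import Cfsg.Agent.H855.KeyMax
import Cfsg.Agent.Lib.FrattiniPGroup

/-!
# Vaughan-Lee's theorem: the derived subgroup of a `p`-group of breadth `b`

`breadth_bound` is proved by induction on the order of the group.
-/

set_option autoImplicit false

namespace Cfsg.Agent.H855.Breadth

open Subgroup
open scoped commutatorElement
open Cfsg.Agent.H855.KeyMax

section general

variable {H : Type*} [Group H]

/-- a normal subgroup containing all commutators of `M` and all `⁅m, g⁆` contains all commutators -/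
theorem commutator_le_of_coatom {M : Subgroup H} (hM : IsCoatom M) {g : H} (hg : g ∉ M)
    (N : Subgroup H) [N.Normal] (h1 : ∀ m ∈ M, ∀ n ∈ M, ⁅m, n⁆ ∈ N) (h2 : ∀ m ∈ M, ⁅m, g⁆ ∈ N) :
    ⁅(⊤ : Subgroup H), (⊤ : Subgroup H)⁆ ≤ N := by
  have htop : ∀ K : Subgroup H, M ≤ K → g ∈ K → K = ⊤ := by
    intro K hK hgK
    refine hM.2 K (lt_of_le_of_ne hK ?_)
    rintro rfl
    exact hg hgK
  have hcomm : ∀ a b : H, ⁅a, b⁆ ∈ N ↔ QuotientGroup.mk' N b * QuotientGroup.mk' N a
      = QuotientGroup.mk' N a * QuotientGroup.mk' N b := by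
    intro a b
    rw [← map_mul, ← map_mul, QuotientGroup.mk'_apply, QuotientGroup.mk'_apply, QuotientGroup.eq]
    have e : (b * a)⁻¹ * (a * b) = (b * a)⁻¹ * ⁅a, b⁆ * (b * a)⁻¹⁻¹ := by
      rw [commutatorElement_def]; group
    rw [e]
    constructor
    · intro h
      exact Subgroup.Normal.conj_mem inferInstance _ h _
    · intro h
      have := Subgroup.Normal.conj_mem (H := N) inferInstance _ h (b * a)
      simpa [mul_assoc] using this
  have hA : ∀ y ∈ M, ∀ x : H, ⁅x, y⁆ ∈ N := by
    intro y hy x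
    have h := htop ((centralizer {QuotientGroup.mk' N y}).comap (QuotientGroup.mk' N)) ?_ ?_
    · have hx : x ∈ (centralizer {QuotientGroup.mk' N y}).comap (QuotientGroup.mk' N) := by
        rw [h]; exact mem_top x
      rw [mem_comap, mem_centralizer_singleton_iff] at hx
      rw [hcomm]
      exact hx.symm
    · intro m hm
      rw [mem_comap, mem_centralizer_singleton_iff]
      exact ((hcomm m y).mp (h1 m hm y hy)).symm
    · rw [mem_comap, mem_centralizer_singleton_iff]
      have := h2 y hy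
      exact (hcomm y g).mp this
  rw [commutator_le]
  intro x _ y _
  have h := htop ((centralizer {QuotientGroup.mk' N x}).comap (QuotientGroup.mk' N)) ?_ ?_
  · have hx : y ∈ (centralizer {QuotientGroup.mk' N x}).comap (QuotientGroup.mk' N) := by
      rw [h]; exact mem_top y
    rw [mem_comap, mem_centralizer_singleton_iff] at hx
    rw [hcomm]
    exact hx
  · intro m hm
    rw [mem_comap, mem_centralizer_singleton_iff]
    exact (hcomm x m).mp (hA m hm x)
  · rw [mem_comap, mem_centralizer_singleton_iff]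
    have h' := htop ((centralizer {QuotientGroup.mk' N g}).comap (QuotientGroup.mk' N)) ?_ ?_
    · have hx : x ∈ (centralizer {QuotientGroup.mk' N g}).comap (QuotientGroup.mk' N) := by
        rw [h']; exact mem_top x
      rw [mem_comap, mem_centralizer_singleton_iff] at hx
      exact hx.symm
    · intro m hm
      rw [mem_comap, mem_centralizer_singleton_iff]
      exact ((hcomm m g).mp (h2 m hm)).symm
    · rw [mem_comap, mem_centralizer_singleton_iff]

theorem card_commutator_le [Finite H] (M : Subgroup H) [M.Normal] (hM : IsCoatom M) (g : H)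
    (hg : g ∉ M) : Nat.card (⁅(⊤ : Subgroup H), (⊤ : Subgroup H)⁆ : Subgroup H)
      ≤ Nat.card (⁅M, M⁆ : Subgroup H) * (centralizer {g}).index := by
  set T : Subgroup H := ⁅M, M⁆ with hT
  set π := QuotientGroup.mk' T with hπ
  have hker : ∀ a b : H, π a = π b → ∃ t ∈ T, b = a * t := by
    intro a b h
    rw [hπ, QuotientGroup.mk'_apply, QuotientGroup.mk'_apply, QuotientGroup.eq] at h
    exact ⟨_, h, by group⟩
  have hc : ∀ m ∈ M, ∀ n ∈ M, π m * π n = π n * π m := by
    intro m hm n hn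
    have h : ⁅m, n⁆ ∈ T := commutator_mem_commutator hm hn
    have h' : π ⁅m, n⁆ = 1 := (QuotientGroup.eq_one_iff _).mpr h
    rw [map_commutatorElement, commutatorElement_eq_one_iff_mul_comm] at h'
    exact h'
  have hmem : ∀ m ∈ M, ⁅m, g⁆ ∈ M := by
    intro m hm
    rw [commutatorElement_def, mul_assoc, mul_assoc]
    refine M.mul_mem hm ?_
    rw [← mul_assoc]
    exact Subgroup.Normal.conj_mem inferInstance _ (M.inv_mem hm) g
  let θ : M →* H ⧸ T :=
    { toFun := fun m => π ⁅(m : H), g⁆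
      map_one' := by simp
      map_mul' := by
        intro m n
        have e : ⁅((m * n : M) : H), g⁆ = (m : H) * ⁅(n : H), g⁆ * (m : H)⁻¹ * ⁅(m : H), g⁆ := by
          simp only [commutatorElement_def, Subgroup.coe_mul]; group
        rw [e, map_mul, map_mul, map_mul, hc _ m.2 _ (hmem n n.2), mul_assoc (π _) (π _) (π _),
          ← map_mul π (m : H), mul_inv_cancel, map_one, mul_one,
          hc _ (hmem n n.2) _ (hmem m m.2)] }
  have hθ : ∀ m : M, θ m = π ⁅(m : H), g⁆ := fun m => rfl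
  set S : Subgroup H := θ.range.comap π with hS
  have hS' : ∀ s : H, s ∈ S ↔ ∃ m ∈ M, π ⁅m, g⁆ = π s := by
    intro s
    rw [hS, mem_comap, MonoidHom.mem_range]
    constructor
    · rintro ⟨m, hm⟩
      exact ⟨m, m.2, hm⟩
    · rintro ⟨m, hm, h⟩
      exact ⟨⟨m, hm⟩, h⟩
  have hN : normalizer (S : Set H) = ⊤ := by
    refine hM.2 _ (lt_of_le_of_ne ?_ ?_)
    · intro m hm
      rw [mem_normalizer_iff]
      intro s
      rw [hS', hS']
      have key : ∀ n ∈ M, ∀ x : H, π ⁅n, g⁆ = π x → π (m * x * m⁻¹) = π x := by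
        intro n hn x hx
        rw [map_mul, map_mul, ← hx, hc _ hm _ (hmem n hn), mul_assoc, ← map_mul π m,
          mul_inv_cancel, map_one, mul_one]
      have key2 : ∀ n ∈ M, ∀ x : H, π ⁅n, g⁆ = π x → π (m⁻¹ * x * m) = π x := by
        intro n hn x hx
        rw [map_mul, map_mul, ← hx, hc _ (M.inv_mem hm) _ (hmem n hn), mul_assoc, ← map_mul π m⁻¹,
          inv_mul_cancel, map_one, mul_one]
      constructor
      · rintro ⟨n, hn, h⟩
        exact ⟨n, hn, by rw [key n hn s h, h]⟩
      · rintro ⟨n, hn, h⟩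
        refine ⟨n, hn, ?_⟩
        have := key2 n hn _ h
        rw [h, ← this]
        congr 1
        group
    · intro h
      apply hg
      rw [h, mem_normalizer_iff]
      intro s
      rw [hS', hS']
      have key : ∀ (n x : H), π ⁅n, g⁆ = π x → π ⁅g * n * g⁻¹, g⁆ = π (g * x * g⁻¹) := by
        intro n x hx
        rw [map_mul, map_mul, ← hx, ← map_mul, ← map_mul]
        congr 1
        simp only [commutatorElement_def]; group
      constructor
      · rintro ⟨n, hn, h⟩
        exact ⟨_, Subgroup.Normal.conj_mem inferInstance _ hn g, key n s h⟩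
      · rintro ⟨n, hn, h⟩
        refine ⟨g⁻¹ * n * g, ?_, ?_⟩
        · have := Subgroup.Normal.conj_mem (H := M) inferInstance _ hn g⁻¹
          simpa using this
        · have e : ⁅g⁻¹ * n * g, g⁆ = g⁻¹ * ⁅n, g⁆ * g := by
            simp only [commutatorElement_def]; group
          rw [e, map_mul, map_mul, h, ← map_mul, ← map_mul]
          congr 1
          group
  have hSn : S.Normal := normalizer_eq_top_iff.mp hN
  have hle : ⁅(⊤ : Subgroup H), (⊤ : Subgroup H)⁆ ≤ S := by
    refine commutator_le_of_coatom hM hg S (fun m hm n hn => ?_) (fun m hm => ?_)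
    · rw [hS']
      refine ⟨1, M.one_mem, ?_⟩
      have h : ⁅m, n⁆ ∈ T := commutator_mem_commutator hm hn
      have h' : π ⁅m, n⁆ = 1 := (QuotientGroup.eq_one_iff _).mpr h
      rw [h', commutatorElement_one_left, map_one]
    · rw [hS']
      exact ⟨m, hm, rfl⟩
  have hF : ∀ s : S, ∃ x : T × (H ⧸ centralizer {g}),
      (s : H) = (x.2.out * g * x.2.out⁻¹) * g⁻¹ * x.1 := by
    rintro ⟨s, hs⟩
    obtain ⟨m, hm, h⟩ := (hS' s).mp hs
    obtain ⟨t, ht, h'⟩ := hker _ _ h
    refine ⟨⟨⟨t, ht⟩, (m : H ⧸ centralizer {g})⟩, ?_⟩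
    obtain ⟨z, hz⟩ := QuotientGroup.mk_out_eq_mul (centralizer {g}) m
    change s = _ * g⁻¹ * t
    simp only
    rw [hz, h']
    have hzc : (z : H) * g = g * (z : H) := by
      have := z.2
      rw [mem_centralizer_singleton_iff] at this
      exact this
    have e : m * (z : H) * g * (m * (z : H))⁻¹ = m * g * m⁻¹ := by
      rw [mul_assoc m, hzc]; group
    rw [e, commutatorElement_def]
  choose F hF using hF
  have hinj : Function.Injective F := by
    intro s s' h
    apply Subtype.ext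
    rw [hF s, hF s', h]
  calc Nat.card (⁅(⊤ : Subgroup H), (⊤ : Subgroup H)⁆ : Subgroup H) ≤ Nat.card S :=
        Nat.card_le_card_of_injective _ (Subgroup.inclusion_injective hle)
    _ ≤ Nat.card (T × (H ⧸ centralizer {g})) := Nat.card_le_card_of_injective F hinj
    _ = Nat.card T * (centralizer {g}).index := by
        rw [Nat.card_prod]; rfl

end general

section pgroup

variable {p : ℕ} [Fact p.Prime] {H : Type*} [Group H]

theorem exists_lam [Finite H] (hH : IsPGroup p H) {M : Subgroup H} (hM : IsCoatom M) :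
    ∃ lam : H → ZMod p, (∀ x y, lam (x * y) = lam x + lam y) ∧ (∀ x, x ∈ M ↔ lam x = 0) ∧
      ∃ v, lam v = 1 := by
  have hN : M.Normal := Lib.FrattiniPGroup.normal_of_coatom hH hM
  have hidx : M.index = p := Lib.FrattiniPGroup.index_of_coatom hH hM
  have h1 : Nat.card (H ⧸ M) = p := hidx
  have h2 : Nat.card (Multiplicative (ZMod p)) = p := by simp
  let e : H ⧸ M ≃* Multiplicative (ZMod p) := mulEquivOfPrimeCardEq h1 h2
  refine ⟨fun x => (e (QuotientGroup.mk' M x)).toAdd, fun x y => ?_, fun x => ?_, ?_⟩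
  · change (e (QuotientGroup.mk' M (x * y))).toAdd = _
    rw [map_mul, map_mul]; rfl
  · rw [show (e (QuotientGroup.mk' M x)).toAdd = 0 ↔ e (QuotientGroup.mk' M x) = 1 from Iff.rfl,
      map_eq_one_iff e e.injective, QuotientGroup.mk'_apply, QuotientGroup.eq_one_iff]
  · obtain ⟨v, hv⟩ := QuotientGroup.mk'_surjective M (e.symm (Multiplicative.ofAdd 1))
    refine ⟨v, ?_⟩
    simp only [hv, MulEquiv.apply_symm_apply]
    rfl

/-- the kernel of an additive function -/
def kerSub (χ : H → ZMod p) (hχ : ∀ x y, χ (x * y) = χ x + χ y) : Subgroup H where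
  carrier := {x | χ x = 0}
  mul_mem' := by
    intro a b ha hb
    change χ (a * b) = 0
    rw [hχ, ha, hb, add_zero]
  one_mem' := by
    have := hχ 1 1
    rw [mul_one] at this
    exact left_eq_add.mp this
  inv_mem' := by
    intro a ha
    change χ a⁻¹ = 0
    rw [hom_inv hχ, ha, neg_zero]

theorem mem_kerSub {χ : H → ZMod p} {hχ : ∀ x y, χ (x * y) = χ x + χ y} {x : H} :
    x ∈ kerSub χ hχ ↔ χ x = 0 := Iff.rfl

theorem exists_unit {χ : H → ZMod p} (hχ : ∀ x y, χ (x * y) = χ x + χ y) {x : H} (hx : χ x ≠ 0) :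
    ∃ n : ℕ, χ (x ^ n) = 1 := by
  refine ⟨((χ x)⁻¹).val, ?_⟩
  rw [hom_pow hχ, ZMod.natCast_zmod_val, inv_mul_cancel₀ hx]

theorem kerSub_isCoatom {χ : H → ZMod p} (hχ : ∀ x y, χ (x * y) = χ x + χ y) {v : H}
    (hv : χ v ≠ 0) : IsCoatom (kerSub χ hχ) := by
  refine ⟨fun h => hv ?_, fun K hK => ?_⟩
  · have : v ∈ kerSub χ hχ := by rw [h]; exact mem_top v
    exact this
  · obtain ⟨x, hxK, hx⟩ := SetLike.exists_of_lt hK
    obtain ⟨n, hn⟩ := exists_unit hχ (x := x) hx
    rw [eq_top_iff]
    intro y _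
    obtain ⟨y', m, rfl, hy'⟩ := exists_decomp hχ hn y
    exact K.mul_mem (hK.le hy') (K.pow_mem (K.pow_mem hxK n) m)

theorem lt_of_nilpotent [Group.IsNilpotent H] {T D : Subgroup H} [T.Normal] (hTD : T < D) :
    T ⊔ ⁅D, (⊤ : Subgroup H)⁆ < D ∨ ¬ D.Normal := by
  by_cases hDn : D.Normal
  · left
    have hle : T ⊔ ⁅D, (⊤ : Subgroup H)⁆ ≤ D := sup_le hTD.le (commutator_le_left _ _)
    refine lt_of_le_of_ne hle (fun heq => ?_)
    have key : ∀ n, D ≤ T ⊔ (⊤ : Subgroup H).lowerCentralSeries n := by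
      intro n
      induction n with
      | zero => simp
      | succ n ih =>
        conv_lhs => rw [← heq]
        refine sup_le le_sup_left ?_
        rw [commutator_le]
        intro d hd h _
        obtain ⟨t, ht, c, hc, rfl⟩ := Subgroup.mem_sup_of_normal_left.mp (ih hd)
        have e : ⁅t * c, h⁆ = (t * ⁅c, h⁆ * t⁻¹ * ⁅c, h⁆⁻¹) * ⁅c, h⁆ * (t * (h * t⁻¹ * h⁻¹)) := by
          simp only [commutatorElement_def]; group
        rw [e]
        have hc' : ⁅c, h⁆ ∈ (⊤ : Subgroup H).lowerCentralSeries (n + 1) :=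
          commutator_mem_commutator hc (mem_top h)
        refine mul_mem (mul_mem ?_ ((le_sup_right : _ ≤ T ⊔ _) hc')) ?_
        · apply (le_sup_left : T ≤ _)
          rw [mul_assoc, mul_assoc]
          refine T.mul_mem ht ?_
          rw [← mul_assoc]
          exact Subgroup.Normal.conj_mem inferInstance _ (T.inv_mem ht) _
        · apply (le_sup_left : T ≤ _)
          exact T.mul_mem ht (Subgroup.Normal.conj_mem inferInstance _ (T.inv_mem ht) _)
    have hnt : Group.IsNilpotent (⊤ : Subgroup H) := inferInstance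
    obtain ⟨n, hn⟩ := (Subgroup.isNilpotent_iff_lowerCentralSeries (⊤ : Subgroup H)).mp hnt
    have := key n
    rw [hn, sup_bot_eq] at this
    exact absurd this (not_le_of_gt hTD)
  · right; exact hDn

theorem exists_inv [Finite H] (hH : IsPGroup p H) {T D : Subgroup H} [T.Normal] [D.Normal]
    (hTD : T < D) : ∃ φ : H → ZMod p, IsInv D φ ∧ (∃ d ∈ D, φ d ≠ 0) ∧ ∀ t ∈ T, φ t = 0 := by
  classical
  have hnil := hH.isNilpotent
  have hP : T ⊔ ⁅D, (⊤ : Subgroup H)⁆ < D := by
    rcases lt_of_nilpotent hTD with h | h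
    · exact h
    · exact absurd ‹D.Normal› h
  set P := T ⊔ ⁅D, (⊤ : Subgroup H)⁆ with hPdef
  have hne : P.subgroupOf D ≠ ⊤ := by
    intro h
    rw [subgroupOf_eq_top] at h
    exact absurd h (not_le_of_gt hP)
  obtain ⟨M, hM, hPM⟩ := (eq_top_or_exists_le_coatom (P.subgroupOf D)).resolve_left hne
  obtain ⟨lam, hl1, hl2, v, hv⟩ := exists_lam (hH.to_subgroup D) hM
  refine ⟨fun x => if h : x ∈ D then lam ⟨x, h⟩ else 0, ⟨fun x hx y hy => ?_, fun h x hx => ?_⟩,
    ⟨v, v.2, ?_⟩, fun t ht => ?_⟩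
  · simp only [hx, hy, D.mul_mem hx hy, dif_pos]
    exact hl1 ⟨x, hx⟩ ⟨y, hy⟩
  · have hx' : h * x * h⁻¹ ∈ D := Subgroup.Normal.conj_mem inferInstance _ hx h
    simp only [hx, hx', dif_pos]
    have hc : ⁅h, x⁆ ∈ P := by
      apply (le_sup_right : _ ≤ P)
      rw [← commutatorElement_inv]
      exact inv_mem (commutator_mem_commutator hx (mem_top h))
    have hcD : ⁅h, x⁆ ∈ D := hP.le hc
    have e : (⟨h * x * h⁻¹, hx'⟩ : D) = ⟨⁅h, x⁆, hcD⟩ * ⟨x, hx⟩ := by
      apply Subtype.ext
      simp only [commutatorElement_def, Subgroup.coe_mul]; group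
    rw [e, hl1, (hl2 _).mp (hPM (mem_subgroupOf.mpr hc)), zero_add]
  · simp only [v.2, dif_pos]
    change lam v ≠ 0
    rw [hv]
    exact one_ne_zero
  · have htD : t ∈ D := hTD.le ht
    simp only [htD, dif_pos]
    exact (hl2 _).mp (hPM (mem_subgroupOf.mpr ((le_sup_left : T ≤ P) ht)))

/-- the key lemma -/
theorem exists_other_coatom [Finite H] (hH : IsPGroup p H) {M0 : Subgroup H} (hM0 : IsCoatom M0)
    (hD : ⁅M0, M0⁆ = ⁅(⊤ : Subgroup H), (⊤ : Subgroup H)⁆)
    (hne : ⁅(⊤ : Subgroup H), (⊤ : Subgroup H)⁆ ≠ ⊥) :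
    ∃ M : Subgroup H, IsCoatom M ∧ M ≠ M0 ∧ ⁅M, M⁆ = ⁅(⊤ : Subgroup H), (⊤ : Subgroup H)⁆ := by
  by_contra hcon
  push Not at hcon
  obtain ⟨lam, hl1, hl2, v0, hv⟩ := exists_lam hH hM0
  refine core M0 v0 lam hv hl1 hl2 hD ?_ ?_
  · obtain ⟨φ, h1, h2, -⟩ := exists_inv hH (T := ⊥) (bot_lt_iff_ne_bot.mpr hne)
    exact ⟨φ, h1, h2⟩
  · intro χ hχ hχv hχl
    have hco : IsCoatom (kerSub χ hχ) := kerSub_isCoatom hχ (v := v0) (by rw [hχv]; exact one_ne_zero)
    have hn : (kerSub χ hχ).Normal := Lib.FrattiniPGroup.normal_of_coatom hH hco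
    have hneM : kerSub χ hχ ≠ M0 := by
      intro h
      apply hχl
      ext x
      obtain ⟨x', n, rfl, hx'⟩ := exists_decomp hχ hχv x
      have : lam x' = 0 := by
        rw [← hl2, ← h]
        exact hx'
      rw [hχ, hl1, hx', this, hom_pow hχ, hom_pow hl1, hχv, hv]
    have hlt : ⁅kerSub χ hχ, kerSub χ hχ⁆ < ⁅(⊤ : Subgroup H), (⊤ : Subgroup H)⁆ :=
      lt_of_le_of_ne (commutator_mono le_top le_top) (hcon _ hco hneM)
    obtain ⟨φ, h1, h2, h3⟩ := exists_inv hH hlt
    exact ⟨φ, h1, h2, fun x y hx hy => h3 _ (commutator_mem_commutator hx hy)⟩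

theorem card_comm_sub (M : Subgroup H) : Nat.card (⁅(⊤ : Subgroup M), (⊤ : Subgroup M)⁆ : Subgroup M)
    = Nat.card (⁅M, M⁆ : Subgroup H) := by
  have h := Subgroup.map_commutator (⊤ : Subgroup M) (⊤ : Subgroup M) M.subtype
  rw [← MonoidHom.range_eq_map, Subgroup.range_subtype] at h
  rw [← h]
  exact Nat.card_congr (Subgroup.equivMapOfInjective _ M.subtype M.subtype_injective).toEquiv

theorem index_cent_sub (M : Subgroup H) (x : M) :
    (centralizer {x}).index = (centralizer {(x : H)}).relIndex M := by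
  rw [Subgroup.relIndex]
  congr 1
  ext y
  rw [mem_subgroupOf, mem_centralizer_singleton_iff, mem_centralizer_singleton_iff,
    Subtype.ext_iff]
  rfl

theorem relIndex_ne_zero' [Finite H] (K M : Subgroup H) : K.relIndex M ≠ 0 := by
  rw [Subgroup.relIndex]
  exact Subgroup.index_ne_zero_of_finite

theorem relIndex_le_index [Finite H] (K M : Subgroup H) : K.relIndex M ≤ K.index := by
  rw [← Subgroup.relIndex_top_right K]
  exact Subgroup.relIndex_le_of_le_right le_top (relIndex_ne_zero' _ _)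

end pgroup

theorem breadth_bound.{u} (p : ℕ) [Fact p.Prime] (n : ℕ) : ∀ (H : Type u) [Group H] [Finite H],
    Nat.card H = n → IsPGroup p H → ∀ (k : ℕ) (Y : Subgroup H), Y ≠ ⊤ →
    (∀ x : H, x ∉ Y → (centralizer {x}).index ≤ p ^ k) →
    Nat.card (⁅(⊤ : Subgroup H), (⊤ : Subgroup H)⁆ : Subgroup H) ≤ p ^ (k * (k + 1) / 2) := by
  induction n using Nat.strong_induction_on with
  | _ n ih =>
    intro H _ _ hcard hH k Y hY hk
    have hp : p.Prime := Fact.out
    obtain ⟨M0, hM0, hYM⟩ := (eq_top_or_exists_le_coatom Y).resolve_left hY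
    replace hk : ∀ x : H, x ∉ M0 → (centralizer {x}).index ≤ p ^ k := fun x hx =>
      hk x (fun h => hx (hYM h))
    have hlt : ∀ M : Subgroup H, IsCoatom M → Nat.card M < n := by
      intro M hM
      rw [← hcard]
      refine lt_of_le_of_ne (Subgroup.card_le_card_group M) (fun h => hM.1 ?_)
      exact Subgroup.eq_top_of_card_eq M h
    by_cases hne : ⁅(⊤ : Subgroup H), (⊤ : Subgroup H)⁆ = ⊥
    · rw [hne, Subgroup.card_bot]
      exact Nat.one_le_pow _ _ hp.pos
    by_cases hA : ∃ M : Subgroup H, IsCoatom M ∧ M ≠ M0 ∧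
        ⁅M, M⁆ = ⁅(⊤ : Subgroup H), (⊤ : Subgroup H)⁆
    · obtain ⟨M, hM, hMne, hMD⟩ := hA
      have h1 := ih (Nat.card M) (hlt M hM) M rfl (hH.to_subgroup M) k (M0.subgroupOf M) (by
        intro h
        rw [subgroupOf_eq_top] at h
        rcases h.lt_or_eq with h' | h'
        · exact hM0.1 (hM.2 _ h')
        · exact hMne h') (by
        intro x hx
        rw [index_cent_sub]
        refine (relIndex_le_index _ _).trans (hk _ (fun h => hx (mem_subgroupOf.mpr h))))
      rw [card_comm_sub, hMD] at h1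
      exact h1
    · have hlt0 : ⁅M0, M0⁆ < ⁅(⊤ : Subgroup H), (⊤ : Subgroup H)⁆ :=
        lt_of_le_of_ne (commutator_mono le_top le_top)
          (fun h => hA (exists_other_coatom hH hM0 h hne))
      have hn0 : M0.Normal := Lib.FrattiniPGroup.normal_of_coatom hH hM0
      obtain ⟨φ, hφ, ⟨d, hd, hd0⟩, hφ0⟩ := exists_inv hH hlt0
      obtain ⟨lam, hl1, hl2, v0, hv⟩ := exists_lam hH hM0
      have hform := form_eq hφ hl1 hv (fun x y hx hy =>
        hφ0 _ (commutator_mem_commutator ((hl2 x).mpr hx) ((hl2 y).mpr hy)))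
      have hν : ∀ x y : H, φ ⁅x * y, v0⁆ = φ ⁅x, v0⁆ + φ ⁅y, v0⁆ := fun x y =>
        hφ.comm_mul_left x y v0
      obtain ⟨h, hh⟩ : ∃ h : H, φ ⁅h, v0⁆ ≠ 0 := by
        by_contra hcon
        push Not at hcon
        apply hd0
        refine hφ.eq_zero (fun x y => ?_) hd
        rw [hform, hcon, hcon, mul_zero, mul_zero, sub_zero]
      set M : Subgroup H := kerSub (fun x => φ ⁅x, v0⁆) hν with hMdef
      have hM : IsCoatom M := kerSub_isCoatom (χ := fun x => φ ⁅x, v0⁆) hν hh
      have hMn : M.Normal := Lib.FrattiniPGroup.normal_of_coatom hH hM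
      have hMi : M.index = p := Lib.FrattiniPGroup.index_of_coatom hH hM
      have hmem : ∀ x : H, x ∈ M ↔ φ ⁅x, v0⁆ = 0 := fun x => Iff.rfl
      have hv0M : v0 ∈ M := (hmem v0).mpr (hφ.comm_self v0)
      have hv0 : v0 ∉ M0 := by
        rw [hl2, hv]
        exact one_ne_zero
      have hcent : ∀ x ∈ M, x ∉ M0 → (centralizer {x}).relIndex M * p ≤ p ^ k := by
        intro x hx hx0
        have hle : centralizer {x} ≤ M := by
          intro y hy
          rw [mem_centralizer_singleton_iff] at hy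
          have h1 : ⁅x, y⁆ = 1 := commutatorElement_eq_one_iff_mul_comm.mpr hy.symm
          have h2 := hform x y
          rw [h1, hφ.one, (hmem x).mp hx, mul_zero, zero_sub] at h2
          have h3 : lam x ≠ 0 := fun h => hx0 ((hl2 x).mpr h)
          rw [hmem]
          have h4 := (neg_eq_zero.mp h2.symm)
          exact (mul_eq_zero.mp h4).resolve_left h3
        have h5 := Subgroup.relIndex_mul_index hle
        rw [hMi] at h5
        rw [h5]
        exact hk x hx0
      obtain ⟨k', rfl⟩ : ∃ k', k = k' + 1 := by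
        cases k with
        | zero =>
          exfalso
          have h1 := hcent v0 hv0M hv0
          rw [pow_zero] at h1
          have h2 : 0 < (centralizer {v0}).relIndex M :=
            Nat.pos_of_ne_zero (relIndex_ne_zero' _ _)
          have h3 := hp.two_le
          nlinarith
        | succ k' => exact ⟨k', rfl⟩
      have h1 := ih (Nat.card M) (hlt M hM) M rfl (hH.to_subgroup M) k' (M0.subgroupOf M) (by
        intro h
        rw [subgroupOf_eq_top] at h
        exact hv0 (h hv0M)) (by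
        intro x hx
        rw [index_cent_sub]
        have h2 := hcent x x.2 (fun h => hx (mem_subgroupOf.mpr h))
        rw [pow_succ] at h2
        exact Nat.le_of_mul_le_mul_right h2 hp.pos)
      rw [card_comm_sub] at h1
      obtain ⟨g, hgM, hg0⟩ : ∃ g : H, g ∉ M ∧ g ∉ M0 := by
        by_cases hc : h ∈ M0
        · refine ⟨h * v0, ?_, ?_⟩
          · rw [hmem, hν, hφ.comm_self, add_zero]
            exact hh
          · rw [hl2, hl1, (hl2 h).mp hc, hv, zero_add]
            exact one_ne_zero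
        · exact ⟨h, hh, hc⟩
      calc Nat.card (⁅(⊤ : Subgroup H), (⊤ : Subgroup H)⁆ : Subgroup H)
          ≤ Nat.card (⁅M, M⁆ : Subgroup H) * (centralizer {g}).index :=
            card_commutator_le M hM g hgM
        _ ≤ p ^ (k' * (k' + 1) / 2) * p ^ (k' + 1) := Nat.mul_le_mul h1 (hk g hg0)
        _ = p ^ ((k' + 1) * (k' + 1 + 1) / 2) := by
          rw [← pow_add]
          congr 1
          have e : (k' + 1) * (k' + 1 + 1) = k' * (k' + 1) + (k' + 1) * 2 := by ring
          rw [e, Nat.add_mul_div_right _ _ (by norm_num)]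

end Cfsg.Agent.H855.Breadth
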