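import Mathlib

/-!
# Sums of determinants over a vector space over `ZMod p`

Used for Vaughan-Lee's theorem (S3777).
-/

set_option autoImplicit false

namespace Cfsg.Agent.H855.DetSum

open Finset Matrix

variable {p : ℕ} [Fact p.Prime]

theorem exists_ne_zero_of_card_lt {E T : Type*} [AddCommGroup E] [Module (ZMod p) E]
    [FiniteDimensional (ZMod p) E] (s : Finset T) (l : T → E →ₗ[ZMod p] ZMod p)
    (h : s.card < Module.finrank (ZMod p) E) : ∃ u : E, u ≠ 0 ∧ ∀ i ∈ s, l i u = 0 := by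
  have h1 : LinearMap.ker (LinearMap.pi (fun i : s => l i)) ≠ ⊥ := by
    apply LinearMap.ker_ne_bot_of_finrank_lt
    simpa using h
  obtain ⟨u, hu, hu0⟩ := (Submodule.ne_bot_iff _).mp h1
  refine ⟨u, hu0, fun i hi => ?_⟩
  have := congrFun (LinearMap.mem_ker.mp hu) ⟨i, hi⟩
  simpa using this

variable (p) in
theorem exists_functional_eq_one {E : Type*} [AddCommGroup E] [Module (ZMod p) E] {u : E}
    (hu : u ≠ 0) : ∃ χ : E →ₗ[ZMod p] ZMod p, χ u = 1 := by
  have h1 : ¬ ∀ φ : Module.Dual (ZMod p) E, φ u = 0 := by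
    rw [Module.forall_dual_apply_eq_zero_iff]
    exact hu
  push Not at h1
  obtain ⟨φ, hφ⟩ := h1
  refine ⟨(φ u)⁻¹ • φ, ?_⟩
  simp [hφ]

theorem sum_prod_eq_zero {E T : Type*} [AddCommGroup E] [Module (ZMod p) E] [Fintype E]
    (s : Finset T) (l : T → E →ₗ[ZMod p] ZMod p) (h : s.card < Module.finrank (ZMod p) E) :
    ∑ η : E, ∏ i ∈ s, l i η = 0 := by
  obtain ⟨u, hu, hl⟩ := exists_ne_zero_of_card_lt s l h
  obtain ⟨χ, hχ⟩ := exists_functional_eq_one p hu
  have key : ∑ η : E, χ (η + u) * ∏ i ∈ s, l i (η + u) = ∑ η : E, χ η * ∏ i ∈ s, l i η :=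
    Equiv.sum_comp (Equiv.addRight u) (fun η => χ η * ∏ i ∈ s, l i η)
  have h2 : ∀ η : E, ∏ i ∈ s, l i (η + u) = ∏ i ∈ s, l i η := by
    intro η
    apply Finset.prod_congr rfl
    intro i hi
    rw [map_add, hl i hi, add_zero]
  simp only [h2] at key
  simp only [map_add, hχ, add_mul, one_mul, Finset.sum_add_distrib] at key
  exact add_left_cancel (key.trans (add_zero _).symm)

theorem sum_det_one_sub {ι E : Type*} [Fintype ι] [DecidableEq ι] [AddCommGroup E]
    [Module (ZMod p) E] [Fintype E] (hcard : Fintype.card ι ≤ Module.finrank (ZMod p) E)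
    (A : E →ₗ[ZMod p] Matrix ι ι (ZMod p)) :
    ∑ η : E, det (1 - A η) = ∑ η : E, det (-A η) := by
  classical
  simp only [det_apply']
  rw [Finset.sum_comm, Finset.sum_comm (s := (Finset.univ : Finset E))]
  apply Finset.sum_congr rfl
  intro σ _
  rw [← Finset.mul_sum, ← Finset.mul_sum]
  congr 1
  have h1 : ∀ η : E, ∏ i : ι, (1 - A η) (σ i) i
      = ∑ t ∈ (Finset.univ : Finset ι).powerset,
        (∏ i ∈ t, (1 : Matrix ι ι (ZMod p)) (σ i) i) *
          ∏ i ∈ Finset.univ \ t, (-A η) (σ i) i := by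
    intro η
    rw [← Finset.prod_add]
    apply Finset.prod_congr rfl
    intro i _
    rw [Matrix.sub_apply, Matrix.neg_apply, sub_eq_add_neg]
  simp only [h1]
  rw [Finset.sum_comm]
  rw [Finset.sum_eq_single_of_mem (∅ : Finset ι) (by simp)]
  · simp
  · intro t _ ht
    rw [← Finset.mul_sum]
    have h3 : ∑ η : E, ∏ i ∈ Finset.univ \ t, (-A η) (σ i) i = 0 := by
      have := sum_prod_eq_zero (p := p) (E := E) (Finset.univ \ t)
        (fun i => (Matrix.entryLinearMap (ZMod p) (ZMod p) (σ i) i) ∘ₗ (-A)) ?_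
      · simpa only [LinearMap.comp_apply, Matrix.entryLinearMap_apply, LinearMap.neg_apply] using this
      · refine lt_of_lt_of_le ?_ hcard
        rw [← Finset.card_univ]
        apply Finset.card_lt_card
        refine ⟨Finset.sdiff_subset, fun hsub => ht ?_⟩
        ext i
        simp only [Finset.notMem_empty, iff_false]
        intro hi
        have := hsub (Finset.mem_univ i)
        simp at this
        exact this hi
    rw [h3, mul_zero]

/-- The contradiction used in the key lemma. -/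
theorem false_of_det {ι E : Type*} [Fintype ι] [Nonempty ι] [AddCommGroup E]
    [Module (ZMod p) E] [Finite E] (β : Module.Basis ι (ZMod p) E)
    (A : E →ₗ[ZMod p] Matrix ι ι (ZMod p))
    (h0 : ∀ η : E, (A η) *ᵥ (fun l => β.repr η l) = 0)
    (h1 : ∀ η : E, η ≠ 0 → ∃ ν : E, ν ≠ 0 ∧
      (A η) *ᵥ (fun l => β.repr ν l) = fun l => β.repr ν l) : False := by
  classical
  have := Fintype.ofFinite E
  have hne : ∀ ν : E, ν ≠ 0 → (fun l => β.repr ν l) ≠ 0 := by
    intro ν hν h
    apply hν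
    apply β.repr.injective
    ext l
    simpa using congrFun h l
  have hd0 : ∀ η : E, det (-A η) = 0 := by
    intro η
    by_cases hη : η = 0
    · subst hη
      rw [map_zero, neg_zero]
      exact det_zero
    · rw [← Matrix.exists_mulVec_eq_zero_iff]
      refine ⟨_, hne η hη, ?_⟩
      rw [Matrix.neg_mulVec, h0, neg_zero]
  have hd1 : ∀ η : E, η ≠ 0 → det (1 - A η) = 0 := by
    intro η hη
    obtain ⟨ν, hν, h⟩ := h1 η hη
    rw [← Matrix.exists_mulVec_eq_zero_iff]
    refine ⟨_, hne ν hν, ?_⟩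
    rw [Matrix.sub_mulVec, h, Matrix.one_mulVec, sub_self]
  have h2 := sum_det_one_sub (p := p) (ι := ι) (E := E)
    (by rw [Module.finrank_eq_card_basis β]) A
  rw [Finset.sum_eq_single_of_mem (0 : E) (Finset.mem_univ _) (fun η _ hη => hd1 η hη)] at h2
  simp [hd0] at h2

end Cfsg.Agent.H855.DetSum
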