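import Cfsg.Agent.H855.DetSum

/-!
# The key lemma on maximal subgroups for Vaughan-Lee's theorem

`core`: the abstract contradiction (a determinant argument).
-/

set_option autoImplicit false

namespace Cfsg.Agent.H855.KeyMax

open Subgroup
open scoped commutatorElement

variable {p : ℕ} [Fact p.Prime] {H : Type*} [Group H]

/-- a function which restricts to an `H`-invariant homomorphism on `D` -/
structure IsInv (D : Subgroup H) (φ : H → ZMod p) : Prop where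
  mul : ∀ x ∈ D, ∀ y ∈ D, φ (x * y) = φ x + φ y
  conj : ∀ h : H, ∀ x ∈ D, φ (h * x * h⁻¹) = φ x

theorem IsInv.one {D : Subgroup H} {φ : H → ZMod p} (h : IsInv D φ) : φ 1 = 0 := by
  have := h.mul 1 D.one_mem 1 D.one_mem
  rw [mul_one] at this
  exact left_eq_add.mp this

theorem IsInv.inv {D : Subgroup H} {φ : H → ZMod p} (h : IsInv D φ) {x : H} (hx : x ∈ D) :
    φ x⁻¹ = -φ x := by
  have h1 := h.mul x⁻¹ (D.inv_mem hx) x hx
  rw [inv_mul_cancel, h.one] at h1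
  exact eq_neg_of_add_eq_zero_left h1.symm

theorem comm_mem (x y : H) : ⁅x, y⁆ ∈ ⁅(⊤ : Subgroup H), (⊤ : Subgroup H)⁆ :=
  commutator_mem_commutator (mem_top x) (mem_top y)

theorem IsInv.comm_mul_left {φ : H → ZMod p} (h : IsInv ⁅(⊤ : Subgroup H), (⊤ : Subgroup H)⁆ φ)
    (x y z : H) : φ ⁅x * y, z⁆ = φ ⁅x, z⁆ + φ ⁅y, z⁆ := by
  have e : ⁅x * y, z⁆ = (x * ⁅y, z⁆ * x⁻¹) * ⁅x, z⁆ := by
    simp only [commutatorElement_def]; group
  rw [e, h.mul _ (Subgroup.Normal.conj_mem inferInstance _ (comm_mem y z) x) _ (comm_mem x z),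
    h.conj _ _ (comm_mem y z), add_comm]

theorem IsInv.comm_mul_right {φ : H → ZMod p} (h : IsInv ⁅(⊤ : Subgroup H), (⊤ : Subgroup H)⁆ φ)
    (x y z : H) : φ ⁅x, y * z⁆ = φ ⁅x, y⁆ + φ ⁅x, z⁆ := by
  have e : ⁅x, y * z⁆ = ⁅x, y⁆ * (y * ⁅x, z⁆ * y⁻¹) := by
    simp only [commutatorElement_def]; group
  rw [e, h.mul _ (comm_mem x y) _ (Subgroup.Normal.conj_mem inferInstance _ (comm_mem x z) y),
    h.conj _ _ (comm_mem x z)]

theorem IsInv.comm_self {D : Subgroup H} {φ : H → ZMod p} (h : IsInv D φ) (x : H) :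
    φ ⁅x, x⁆ = 0 := by
  rw [commutatorElement_self, h.one]

theorem IsInv.comm_symm {φ : H → ZMod p} (h : IsInv ⁅(⊤ : Subgroup H), (⊤ : Subgroup H)⁆ φ)
    (x y : H) : φ ⁅x, y⁆ = -φ ⁅y, x⁆ := by
  rw [← commutatorElement_inv, h.inv (comm_mem y x)]

/-- vanishing on all commutators implies vanishing on the commutator subgroup -/
theorem IsInv.eq_zero {φ : H → ZMod p} (h : IsInv ⁅(⊤ : Subgroup H), (⊤ : Subgroup H)⁆ φ)
    (h0 : ∀ x y : H, φ ⁅x, y⁆ = 0) {d : H} (hd : d ∈ ⁅(⊤ : Subgroup H), (⊤ : Subgroup H)⁆) :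
    φ d = 0 := by
  rw [Subgroup.commutator_def] at hd
  have key : ∀ d ∈ closure {g : H | ∃ g₁ ∈ (⊤ : Subgroup H), ∃ g₂ ∈ (⊤ : Subgroup H), ⁅g₁, g₂⁆ = g},
      d ∈ ⁅(⊤ : Subgroup H), (⊤ : Subgroup H)⁆ ∧ φ d = 0 := by
    intro d hd
    induction hd using closure_induction with
    | mem x hx =>
      obtain ⟨a, -, b, -, rfl⟩ := hx
      exact ⟨comm_mem a b, h0 a b⟩
    | one => exact ⟨one_mem _, h.one⟩
    | mul x y _ _ hx hy =>
      refine ⟨mul_mem hx.1 hy.1, ?_⟩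
      rw [h.mul x hx.1 y hy.1, hx.2, hy.2, add_zero]
    | inv x _ hx =>
      refine ⟨inv_mem hx.1, ?_⟩
      rw [h.inv hx.1, hx.2, neg_zero]
  exact (key d hd).2

theorem exists_form (M0 : Subgroup H) {x : H} (hx : x ∈ ⁅M0, M0⁆) :
    ∃ Ψ : (H → ZMod p) →ₗ[ZMod p] (H → ZMod p) →ₗ[ZMod p] ZMod p,
      (∀ η : H → ZMod p, Ψ η η = 0) ∧
      ∀ φ : H → ZMod p, IsInv ⁅M0, M0⁆ φ → ∀ χ ν : H → ZMod p,
        (∀ a ∈ M0, ∀ b ∈ M0, φ ⁅a, b⁆ = χ b * ν a - χ a * ν b) → φ x = Ψ χ ν := by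
  rw [Subgroup.commutator_def] at hx
  have key : ∀ x ∈ closure {g : H | ∃ g₁ ∈ M0, ∃ g₂ ∈ M0, ⁅g₁, g₂⁆ = g}, x ∈ ⁅M0, M0⁆ ∧
      ∃ Ψ : (H → ZMod p) →ₗ[ZMod p] (H → ZMod p) →ₗ[ZMod p] ZMod p,
      (∀ η : H → ZMod p, Ψ η η = 0) ∧
      ∀ φ : H → ZMod p, IsInv ⁅M0, M0⁆ φ → ∀ χ ν : H → ZMod p,
        (∀ a ∈ M0, ∀ b ∈ M0, φ ⁅a, b⁆ = χ b * ν a - χ a * ν b) → φ x = Ψ χ ν := by
    intro x hx
    induction hx using closure_induction with
    | mem x hx =>
      obtain ⟨a, ha, b, hb, rfl⟩ := hx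
      refine ⟨commutator_mem_commutator ha hb,
        LinearMap.mk₂ (ZMod p) (fun χ ν => χ b * ν a - χ a * ν b) ?_ ?_ ?_ ?_, ?_, ?_⟩
      · intro m m' n
        simp only [Pi.add_apply]; ring
      · intro c m n
        simp only [Pi.smul_apply, smul_eq_mul]; ring
      · intro m n n'
        simp only [Pi.add_apply]; ring
      · intro c m n
        simp only [Pi.smul_apply, smul_eq_mul]; ring
      · intro η
        simp only [LinearMap.mk₂_apply]; ring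
      · intro φ _ χ ν h
        simp only [LinearMap.mk₂_apply]
        exact h a ha b hb
    | one =>
      refine ⟨one_mem _, 0, fun η => rfl, fun φ h χ ν _ => ?_⟩
      simpa using h.one
    | mul x y _ _ hx hy =>
      obtain ⟨hx1, Ψ, h1, h2⟩ := hx
      obtain ⟨hy1, Ψ', h1', h2'⟩ := hy
      refine ⟨mul_mem hx1 hy1, Ψ + Ψ', fun η => by simp [h1, h1'], fun φ h χ ν hh => ?_⟩
      rw [h.mul x hx1 y hy1, h2 φ h χ ν hh, h2' φ h χ ν hh]
      rfl
    | inv x _ hx =>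
      obtain ⟨hx1, Ψ, h1, h2⟩ := hx
      refine ⟨inv_mem hx1, -Ψ, fun η => by simp [h1], fun φ h χ ν hh => ?_⟩
      rw [h.inv hx1, h2 φ h χ ν hh]
      rfl
  exact (key x hx).2

/-- homomorphisms to `ZMod p` vanishing at `v0` -/
def homSpace (v0 : H) : Submodule (ZMod p) (H → ZMod p) where
  carrier := {f | (∀ x y, f (x * y) = f x + f y) ∧ f v0 = 0}
  add_mem' := by
    rintro f g ⟨hf, hf0⟩ ⟨hg, hg0⟩
    refine ⟨fun x y => ?_, ?_⟩
    · simp only [Pi.add_apply, hf, hg]; ring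
    · simp [hf0, hg0]
  zero_mem' := ⟨fun x y => by simp, rfl⟩
  smul_mem' := by
    rintro c f ⟨hf, hf0⟩
    refine ⟨fun x y => ?_, ?_⟩
    · simp only [Pi.smul_apply, smul_eq_mul, hf]; ring
    · simp [hf0]

theorem mem_homSpace {v0 : H} {f : H → ZMod p} :
    f ∈ homSpace v0 ↔ (∀ x y, f (x * y) = f x + f y) ∧ f v0 = 0 := Iff.rfl

theorem IsInv.comm_mem_homSpace {φ : H → ZMod p}
    (h : IsInv ⁅(⊤ : Subgroup H), (⊤ : Subgroup H)⁆ φ) (v0 : H) :
    (fun x => φ ⁅x, v0⁆) ∈ homSpace v0 :=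
  ⟨fun x y => h.comm_mul_left x y v0, h.comm_self v0⟩

/-- a homomorphism to `ZMod p` (bundled as a function): powers -/
theorem hom_pow {f : H → ZMod p} (hf : ∀ x y, f (x * y) = f x + f y) (x : H) (n : ℕ) :
    f (x ^ n) = n * f x := by
  induction n with
  | zero =>
    have := hf 1 1
    rw [mul_one] at this
    simpa using left_eq_add.mp this
  | succ n ih => rw [pow_succ, hf, ih]; push_cast; ring

theorem hom_inv {f : H → ZMod p} (hf : ∀ x y, f (x * y) = f x + f y) (x : H) :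
    f x⁻¹ = -f x := by
  have h1 := hf 1 1
  rw [mul_one] at h1
  have h0 : f 1 = 0 := left_eq_add.mp h1
  have h2 := hf x⁻¹ x
  rw [inv_mul_cancel, h0] at h2
  exact eq_neg_of_add_eq_zero_left h2.symm

/-- decomposition `x = x' * v0 ^ n` with `χ x' = 0` -/
theorem exists_decomp {χ : H → ZMod p} (hχ : ∀ x y, χ (x * y) = χ x + χ y) {v0 : H}
    (hv : χ v0 = 1) (x : H) : ∃ x' : H, ∃ n : ℕ, x = x' * v0 ^ n ∧ χ x' = 0 := by
  refine ⟨x * (v0 ^ (χ x).val)⁻¹, (χ x).val, by group, ?_⟩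
  rw [hχ, hom_inv hχ, hom_pow hχ, hv, mul_one, ZMod.natCast_zmod_val, add_neg_cancel]

theorem form_eq {φ : H → ZMod p} (h : IsInv ⁅(⊤ : Subgroup H), (⊤ : Subgroup H)⁆ φ)
    {χ : H → ZMod p} (hχ : ∀ x y, χ (x * y) = χ x + χ y) {v0 : H} (hv : χ v0 = 1)
    (h0 : ∀ x y, χ x = 0 → χ y = 0 → φ ⁅x, y⁆ = 0) (x y : H) :
    φ ⁅x, y⁆ = χ y * φ ⁅x, v0⁆ - χ x * φ ⁅y, v0⁆ := by
  obtain ⟨x', n, rfl, hx'⟩ := exists_decomp hχ hv x
  obtain ⟨y', m, rfl, hy'⟩ := exists_decomp hχ hv y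
  have hr : ∀ (z : H) (k : ℕ), φ ⁅z, v0 ^ k⁆ = k * φ ⁅z, v0⁆ := fun z k =>
    hom_pow (f := fun y => φ ⁅z, y⁆) (fun x y => h.comm_mul_right z x y) v0 k
  have hl : ∀ (z : H) (k : ℕ), φ ⁅v0 ^ k, z⁆ = k * φ ⁅v0, z⁆ := fun z k =>
    hom_pow (f := fun y => φ ⁅y, z⁆) (fun x y => h.comm_mul_left x y z) v0 k
  rw [h.comm_mul_left, h.comm_mul_right, h.comm_mul_right, h0 x' y' hx' hy', hl, hr, hr]
  rw [h.comm_mul_left, h.comm_mul_left, hl, h.comm_self, hχ, hχ, hx', hy', hom_pow hχ, hom_pow hχ,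
    hv, hl, h.comm_self, h.comm_symm v0 y']
  ring

theorem map_smul_sum_repr {ι E F : Type*} [Fintype ι] [AddCommGroup E] [Module (ZMod p) E]
    [AddCommGroup F] [Module (ZMod p) F] (β : Module.Basis ι (ZMod p) E) (f : E →ₗ[ZMod p] F)
    (ν : E) : f ν = ∑ l, (β.repr ν l) • f (β l) := by
  conv_lhs => rw [← β.sum_repr ν, map_sum]
  simp only [map_smul]

theorem core [Finite H] (M0 : Subgroup H) (v0 : H) (lam : H → ZMod p)
    (hv : lam v0 = 1) (hlam : ∀ x y, lam (x * y) = lam x + lam y) (hM0 : ∀ x, x ∈ M0 ↔ lam x = 0)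
    (hD : ⁅M0, M0⁆ = ⁅(⊤ : Subgroup H), (⊤ : Subgroup H)⁆)
    (hφ : ∃ φ : H → ZMod p, IsInv ⁅(⊤ : Subgroup H), (⊤ : Subgroup H)⁆ φ ∧
      ∃ d ∈ ⁅(⊤ : Subgroup H), (⊤ : Subgroup H)⁆, φ d ≠ 0)
    (hQ : ∀ χ : H → ZMod p, (∀ x y, χ (x * y) = χ x + χ y) → χ v0 = 1 → χ ≠ lam →
      ∃ φ : H → ZMod p, IsInv ⁅(⊤ : Subgroup H), (⊤ : Subgroup H)⁆ φ ∧
      (∃ d ∈ ⁅(⊤ : Subgroup H), (⊤ : Subgroup H)⁆, φ d ≠ 0) ∧
      ∀ x y, χ x = 0 → χ y = 0 → φ ⁅x, y⁆ = 0) : False := by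
  classical
  let E : Submodule (ZMod p) (H → ZMod p) := homSpace v0
  let ev : H → Module.Dual (ZMod p) E := fun u => (LinearMap.proj u) ∘ₗ E.subtype
  have hev : ∀ (u : H) (η : E), ev u η = (η : H → ZMod p) u := fun u η => rfl
  have hspan : ⊤ ≤ Submodule.span (ZMod p) (ev '' (M0 : Set H)) := by
    have h1 : (Submodule.span (ZMod p) (ev '' (M0 : Set H))).dualCoannihilator = ⊥ := by
      rw [eq_bot_iff]
      intro η hη
      rw [Submodule.mem_dualCoannihilator] at hη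
      rw [Submodule.mem_bot]
      ext x
      obtain ⟨x', n, rfl, hx'⟩ := exists_decomp hlam hv x
      have h2 := hη (ev x') (Submodule.subset_span ⟨x', (hM0 x').mpr hx', rfl⟩)
      rw [hev] at h2
      rw [η.2.1, h2, hom_pow η.2.1, η.2.2]
      simp
    have h2 := Subspace.dualCoannihilator_dualAnnihilator_eq
      (W := Submodule.span (ZMod p) (ev '' (M0 : Set H)))
    rw [← h2, h1, Submodule.dualAnnihilator_bot]
  obtain ⟨ι, b, hb⟩ : ∃ (ι : Type _) (b : Module.Basis ι (ZMod p) (Module.Dual (ZMod p) E)),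
      ∀ j, ∃ u ∈ M0, ev u = b j := by
    refine ⟨_, Module.Basis.ofSpan hspan, ?_⟩
    intro j
    have := Module.Basis.ofSpan_subset hspan (Set.mem_range_self j)
    obtain ⟨u, hu, h⟩ := this
    exact ⟨u, hu, h⟩
  choose u hu hub using hb
  have := FiniteDimensional.fintypeBasisIndex b
  let β := b.dualBasis.map (Module.evalEquiv (ZMod p) E).symm
  have hβ : ∀ (η : E) l, β.repr η l = (η : H → ZMod p) (u l) := by
    intro η l
    have : β.repr η = b.dualBasis.repr (Module.evalEquiv (ZMod p) E η) := by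
      simp only [β, Module.Basis.map_repr, LinearEquiv.trans_apply, LinearEquiv.symm_symm]
    rw [this, Module.Basis.dualBasis_repr, ← hub l]
    rfl
  have hcm : ∀ j, ⁅u j, v0⁆ ∈ ⁅M0, M0⁆ := by
    intro j
    rw [hD]
    exact comm_mem _ _
  choose Ψ hΨ0 hΨ using fun j => exists_form (p := p) M0 (hcm j)
  let A : E →ₗ[ZMod p] Matrix ι ι (ZMod p) :=
    { toFun := fun η => Matrix.of fun j l => Ψ j (η : H → ZMod p) (β l : H → ZMod p)
      map_add' := by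
        intro η η'
        ext j l
        simp
      map_smul' := by
        intro c η
        ext j l
        simp }
  have hA : ∀ (η ν : E) (j : ι), (A η).mulVec (fun l => β.repr ν l) j = Ψ j η ν := by
    intro η ν j
    have h1 : ((Ψ j (η : H → ZMod p)) ∘ₗ E.subtype) ν = ∑ l, (β.repr ν l) •
        (((Ψ j (η : H → ZMod p)) ∘ₗ E.subtype) (β l)) := by
      exact map_smul_sum_repr β _ ν
    change _ = ((Ψ j (η : H → ZMod p)) ∘ₗ E.subtype) ν
    rw [h1]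
    simp only [Matrix.mulVec, dotProduct]
    apply Finset.sum_congr rfl
    intro l _
    rw [smul_eq_mul, mul_comm]
    rfl
  have hne : Nonempty ι := by
    by_contra hcon
    rw [not_nonempty_iff] at hcon
    have hE : ∀ η : E, η = 0 := by
      intro η
      apply β.repr.injective
      ext l
      exact (hcon.false l).elim
    obtain ⟨φ, hφ, d, hd, hd0⟩ := hφ
    apply hd0
    refine hφ.eq_zero (fun x y => ?_) hd
    have h1 : ∀ z : H, φ ⁅z, v0⁆ = 0 := by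
      intro z
      have := hE ⟨_, hφ.comm_mem_homSpace v0⟩
      exact congrFun (congrArg Subtype.val this) z
    have h2 : (fun z : H => φ ⁅z, y⁆) ∈ homSpace (p := p) v0 := by
      refine ⟨fun a b => hφ.comm_mul_left a b y, ?_⟩
      change φ ⁅v0, y⁆ = 0
      rw [hφ.comm_symm, h1, neg_zero]
    exact congrFun (congrArg Subtype.val (hE ⟨_, h2⟩)) x
  refine DetSum.false_of_det β A (fun η => ?_) (fun η hη => ?_)
  · ext j
    rw [hA, hΨ0]
    rfl
  · have hχ : ∀ x y, (lam + (η : H → ZMod p)) (x * y)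
        = (lam + (η : H → ZMod p)) x + (lam + (η : H → ZMod p)) y := by
      intro x y
      simp only [Pi.add_apply, hlam, η.2.1]
      ring
    have hχv : (lam + (η : H → ZMod p)) v0 = 1 := by
      rw [Pi.add_apply, hv, η.2.2, add_zero]
    obtain ⟨φ, hφ, ⟨d, hd, hd0⟩, h0⟩ := hQ (lam + (η : H → ZMod p)) hχ hχv (by
      intro h
      apply hη
      ext x
      have := congrFun h x
      simpa using this)
    have hform := form_eq hφ hχ hχv h0
    refine ⟨⟨_, hφ.comm_mem_homSpace v0⟩, ?_, ?_⟩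
    · intro h
      apply hd0
      refine hφ.eq_zero (fun x y => ?_) hd
      have h1 : ∀ z : H, φ ⁅z, v0⁆ = 0 := fun z => congrFun (congrArg Subtype.val h) z
      rw [hform, h1, h1, mul_zero, mul_zero, sub_zero]
    · ext j
      rw [hA, hβ]
      have hφ' : IsInv ⁅M0, M0⁆ φ := by rw [hD]; exact hφ
      refine (hΨ j φ hφ' _ _ ?_).symm
      intro a ha c hc
      rw [hform]
      rw [hM0] at ha hc
      simp only [Pi.add_apply, ha, hc, zero_add]

end Cfsg.Agent.H855.KeyMax
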